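import Cfsg.Agent.H711.S8.Trans
import Cfsg.Agent.H273.S8.F24All

/-!
# The 3-transpositions of `Fi24`: the instance of `Tr` (helper711, for S4908)

* `tr24 : Tr (commutator Fi24) L`;
* `two24`, `all24` : `b ≤ |A : C_A(z)| ^ 4` for all `z ≠ 1`.
-/

set_option autoImplicit false

namespace Cfsg.Agent.H711.S8

open Cfsg Cfsg.Spor Cfsg.Agent.R08 Cfsg.Agent.R08.FiTwentyFour
open Cfsg.Agent.Fischer.Fi24Class (gen gen_sq)
open Cfsg.Agent.H320.SD (fx)
open Cfsg.Agent.H273.S8.F24 (cj cj_iff nc_pair exists_move)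

universe u

theorem tr24 : Tr (commutator Fi24) L where
  sq _ ht := FiTwentyFour.sq ht
  conj g _ ht := FiTwentyFour.conj ht g
  three _ ht _ hs := (FiTwentyFour.three ht hs).imp (fun h => h.eq) id
  even _ ht _ hs := FiTwentyFour.even ht hs
  cent z hz h := by
    by_contra hne
    obtain ⟨f, hf, -, h1⟩ := exists_move (w := ⟨z, hz⟩) (fun e => hne (congrArg Subtype.val e)) (gen_mem_L .l)
      (h _ (gen_mem_L .l))
    exact h1 (mul_inv_eq_iff_eq_mul.2 (h f hf))
  com t ht t' ht' hne hc := by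
    obtain ⟨g, -, rfl, rfl⟩ := trans2 (gen_mem_L .l) (gen_mem_L .c) ht ht' (H833.Out24.ne_gen (by decide))
      (H833.Out24.gen_commute (by decide)) hne hc
    refine ⟨g * gen .e * g⁻¹, FiTwentyFour.conj (gen_mem_L _) g, g * gen .k * g⁻¹, FiTwentyFour.conj (gen_mem_L _) g,
      (cj (H833.Out24.gen_commute (by decide))).eq, (cj (H833.Out24.gen_commute (by decide))).eq, fun h => ?_,
      (cj (H833.Out24.gen_commute (by decide))).eq, (cj (H833.Out24.gen_commute (by decide))).eq, fun h => ?_⟩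
    · exact absurd (mul_left_cancel (mul_right_cancel h)) (H833.Out24.ne_gen (by decide))
    · exact absurd (cj_iff.1 h) (H833.Out24.gen_not_commute (by decide) (by decide))
  non t ht t' ht' hn := by
    obtain ⟨g, rfl, rfl⟩ := nc_pair (gen_mem_L .l) (gen_mem_L .k) ht ht'
      (H833.Out24.gen_not_commute (by decide) (by decide)) hn
    refine ⟨g * gen .a * g⁻¹, FiTwentyFour.conj (gen_mem_L _) g, fun h => ?_,
      (cj (H833.Out24.gen_commute (by decide))).eq, fun h => ?_⟩
    · exact absurd (mul_left_cancel (mul_right_cancel h)) (H833.Out24.ne_gen (by decide))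
    · exact absurd (cj_iff.1 h) (H833.Out24.gen_not_commute (by decide) (by decide))

section act

variable {A : Type u} [AddCommGroup A] [Finite A] [DistribMulAction Spor.Fi24' A] {b : ℕ}

/-- involutions -/
theorem two24 (hb : ∀ t ∈ L, ∀ s ∈ L, t ≠ s → ∀ g : Spor.Fi24', (g : Fi24) = t * s → b ≤ (fx A g).index)
    {z : Spor.Fi24'} (hz : z ≠ 1) (hz2 : z ^ 2 = 1) : b ≤ (fx A z).index ^ 4 := two tr24 hb z hz hz2

/-- every element (helper273's `allz`) -/
theorem all24 (hb : ∀ t ∈ L, ∀ s ∈ L, t ≠ s → ∀ g : Spor.Fi24', (g : Fi24) = t * s → b ≤ (fx A g).index)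
    {z : Spor.Fi24'} (hz : z ≠ 1) : b ≤ (fx A z).index ^ 4 :=
  Cfsg.Agent.H273.S8.F24.allz (fun d e hd he hne => hb d hd e he hne _ rfl) hz

end act

end Cfsg.Agent.H711.S8
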